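import Mathlib
import Cfsg.Agent.Lib.Helper99.OTSP.Defs2
import Cfsg.Agent.Lib.Helper59.OHyp.BlkBasic
import Cfsg.Agent.Lib.Helper77.OHyp.IrrDim
import Cfsg.Agent.Lib.Helper76.OHyp.Maschke

/-!
# OTSP (S5973) packages [DIMI] and [SUBI] (all characteristics): invariant subspaces of the moved
space have dimension divisible by `i = ord_r(q)`, and contain invariant subspaces of every
dimension `i s` below their own.
-/

set_option autoImplicit false
set_option linter.unusedSectionVars false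

namespace Cfsg.Agent.Lib.Helper34.OTSP

open Cfsg.Agent.Lib.Helper23.OHyp Cfsg.Agent.Lib.Helper99.OTSP Cfsg.Agent.Lib.Helper59.OHyp Matrix

universe u

theorem cast_r_ne_zero {F : Type u} [Field F] [Fintype F] {r : ℕ} (hr : r.Prime)
    (hnd : ¬ r ∣ Fintype.card F) : (r : F) ≠ 0 := by
  intro h0
  obtain ⟨p, hp⟩ := CharP.exists F
  obtain ⟨n, hpp, hcard⟩ := FiniteField.card F p
  have h1 : p ∣ r := (CharP.cast_eq_zero_iff F p r).mp h0
  have h2 : p = r := (Nat.prime_dvd_prime_iff_eq hpp hr).mp h1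
  apply hnd
  rw [hcard, ← h2]
  exact dvd_pow_self p n.ne_zero

section

variable {F : Type u} [Field F] [Fintype F] {ι : Type} [Fintype ι] [DecidableEq ι] {r : ℕ}
  {y : Matrix ι ι F}

/-- Peel off a minimal invariant subspace (of dimension `i`) with an invariant complement. -/
theorem peel (hr : r.Prime) (hnd : ¬ r ∣ Fintype.card F) (hpow : y ^ r = 1)
    (L : Submodule F (ι → F)) (hL : L ≤ movSp y) (hInv : Inv y L) (hne : L ≠ ⊥) :
    ∃ U C : Submodule F (ι → F), U ≤ L ∧ C ≤ L ∧ Inv y U ∧ Inv y C ∧ U ≠ ⊥ ∧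
      Module.finrank F U = ordI (Fintype.card F) r ∧ U ⊓ C = ⊥ ∧ U ⊔ C = L := by
  have hrF := cast_r_ne_zero hr hnd
  obtain ⟨U, hUL, hU⟩ := exists_minInv y (Module.finrank F L) L le_rfl hInv hne
  have hNF : NoFix y U := (pkgNoFix F ι r y hrF hpow).mono (hUL.trans hL)
  have hdim := Cfsg.Agent.Lib.Helper77.OHyp.pkgIrrDim F ι r y hr hnd hpow U hU hNF
  obtain ⟨C, hCL, hCinv, hinf, hsup⟩ :=
    Cfsg.Agent.Lib.Helper76.OHyp.pkgMaschke F ι r y hrF hpow L U hUL hInv hU.1
  exact ⟨U, C, hUL, hCL, hU.1, hCinv, hU.2.1, hdim, hinf, hsup⟩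

theorem finrank_of_compl {U C L : Submodule F (ι → F)} (hinf : U ⊓ C = ⊥) (hsup : U ⊔ C = L) :
    Module.finrank F L = Module.finrank F U + Module.finrank F C := by
  have h := Submodule.finrank_sup_add_finrank_inf_eq U C
  rw [hinf, finrank_bot, add_zero, hsup] at h
  exact h

theorem finrank_pos_of_ne_bot {U : Submodule F (ι → F)} (hU : U ≠ ⊥) :
    0 < Module.finrank F U := by
  rcases Nat.eq_zero_or_pos (Module.finrank F U) with h | h
  · exact absurd (Submodule.finrank_eq_zero.mp h) hU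
  · exact h

theorem dimI_aux (hr : r.Prime) (hnd : ¬ r ∣ Fintype.card F) (hpow : y ^ r = 1) :
    ∀ (n : ℕ) (L : Submodule F (ι → F)), Module.finrank F L ≤ n → L ≤ movSp y → Inv y L →
      ordI (Fintype.card F) r ∣ Module.finrank F L := by
  intro n
  induction n with
  | zero =>
    intro L hn _ _
    have h0 : Module.finrank F L = 0 := by omega
    rw [h0]; exact dvd_zero _
  | succ n ih =>
    intro L hn hL hInv
    by_cases hne : L = ⊥
    · subst hne; simp
    obtain ⟨U, C, hUL, hCL, hUinv, hCinv, hUne, hdim, hinf, hsup⟩ :=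
      peel hr hnd hpow L hL hInv hne
    have hfr := finrank_of_compl hinf hsup
    have hUpos := finrank_pos_of_ne_bot hUne
    have hC : Module.finrank F C ≤ n := by omega
    have h1 := ih C hC (hCL.trans hL) hCinv
    rw [hfr, hdim]
    exact dvd_add (dvd_refl _) h1

theorem inv_bot' : Inv y (⊥ : Submodule F (ι → F)) := by
  unfold Cfsg.Agent.Lib.Helper23.OHyp.Inv
  simp

theorem subI_aux (hr : r.Prime) (hnd : ¬ r ∣ Fintype.card F) (hpow : y ^ r = 1) :
    ∀ (s : ℕ) (L : Submodule F (ι → F)), L ≤ movSp y → Inv y L →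
      ordI (Fintype.card F) r * s ≤ Module.finrank F L →
      ∃ L' : Submodule F (ι → F), L' ≤ L ∧ Inv y L' ∧
        Module.finrank F L' = ordI (Fintype.card F) r * s := by
  intro s
  induction s with
  | zero =>
    intro L _ _ _
    exact ⟨⊥, bot_le, inv_bot', by simp⟩
  | succ s ih =>
    intro L hL hInv hle
    by_cases hne : L = ⊥
    · subst hne
      refine ⟨⊥, le_rfl, hInv, ?_⟩
      rw [finrank_bot] at hle ⊢
      omega
    obtain ⟨U, C, hUL, hCL, hUinv, hCinv, hUne, hdim, hinf, hsup⟩ :=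
      peel hr hnd hpow L hL hInv hne
    have hfr := finrank_of_compl hinf hsup
    have hC : ordI (Fintype.card F) r * s ≤ Module.finrank F C := by
      rw [hfr, hdim, Nat.mul_succ] at hle
      omega
    obtain ⟨L'', hL''C, hL''inv, hL''dim⟩ := ih C (hCL.trans hL) hCinv hC
    refine ⟨U ⊔ L'', sup_le hUL (hL''C.trans hCL), inv_sup hUinv hL''inv, ?_⟩
    have hinf' : U ⊓ L'' = ⊥ := le_bot_iff.mp ((inf_le_inf le_rfl hL''C).trans hinf.le)
    rw [finrank_of_compl hinf' rfl, hdim, hL''dim, Nat.mul_succ]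
    omega

end

/-- **[DIMI]** -/
theorem pkgDimI : PkgDimI.{u} := by
  intro F _ _ ι _ _ Q r y hS L hL hInv
  exact dimI_aux hS.prime hS.ndvd hS.pow _ L le_rfl hL hInv

/-- **[SUBI]** -/
theorem pkgSubI : PkgSubI.{u} := by
  intro F _ _ ι _ _ Q r y hS L hL hInv s hs
  exact subI_aux hS.prime hS.ndvd hS.pow s L hL hInv hs

end Cfsg.Agent.Lib.Helper34.OTSP
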