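import Mathlib
import Cfsg.Agent.Lib.Helper99.OTSP.Defs2
import Cfsg.Agent.Lib.Helper97.OHyp.Split
import Cfsg.Agent.Lib.Helper34.OTSP.DimI

/-!
# OTSP (S5973) package [SPLIT] (all characteristics): `V = C ⊥ N` for an isometry `y` of prime
order `r` prime to the characteristic, and invariant subspaces split.  Char-free port of
helper97's OHYP [SPLIT].
-/

set_option autoImplicit false
set_option linter.unusedSectionVars false

namespace Cfsg.Agent.Lib.Helper34.OTSP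

open Cfsg.Agent.Lib.Helper23.OHyp Cfsg.Agent.Lib.Helper99.OTSP Cfsg.Agent.Lib.Helper97.OHyp Matrix

universe u

section

variable {F : Type u} [Field F] [Fintype F] {ι : Type} [Fintype ι] [DecidableEq ι]
  {Q : (ι → F) → F} {r : ℕ} {y : Matrix ι ι F}

theorem toLin'_pow_rQ (hS : StdQ Q r y) : (Matrix.toLin' y) ^ r = 1 := by
  rw [toLin'_pow_eq, hS.pow, Matrix.toLin'_one]
  rfl

theorem polar_toLin'Q (hS : StdQ Q r y) (u v : ι → F) :
    QuadraticMap.polar Q (Matrix.toLin' y u) (Matrix.toLin' y v) = QuadraticMap.polar Q u v := by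
  unfold QuadraticMap.polar
  rw [← map_add, Matrix.toLin'_apply, Matrix.toLin'_apply, Matrix.toLin'_apply, hS.isom,
    hS.isom, hS.isom]

theorem perp_fix_movQ (hS : StdQ Q r y) : Perp Q (fixSp y) (movSp y) := by
  intro u hu v hv
  obtain ⟨w, rfl⟩ := mem_movSp.mp hv
  rw [mem_fixSp] at hu
  have h := polar_toLin'Q hS u w
  rw [hu] at h
  rw [polar_sub_right hS.nondeg.polar_bilinear, h, sub_self]

theorem fix_inf_movQ (hS : StdQ Q r y) : fixSp y ⊓ movSp y = ⊥ := by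
  rw [Submodule.eq_bot_iff]
  intro v hv
  obtain ⟨hvC, hvN⟩ := Submodule.mem_inf.mp hv
  rw [mem_fixSp] at hvC
  obtain ⟨z, rfl⟩ := mem_movSp.mp hvN
  have h1 := avg_fix (Matrix.toLin' y) r (cast_r_ne_zero hS.prime hS.ndvd) hvC
  rw [map_sub, avg_T _ _ (toLin'_pow_rQ hS), sub_self] at h1
  exact h1.symm

/-- Splitting of an invariant subspace (no nondegeneracy needed). -/
theorem split_WQ (hS : StdQ Q r y) (W : Submodule F (ι → F)) (hInv : Inv y W) :
    (W ⊓ fixSp y) ⊔ (W ⊓ movSp y) = W ∧ Inv y (W ⊓ movSp y) ∧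
      (∀ w ∈ W, avg (Matrix.toLin' y) r w ∈ W ⊓ fixSp y) ∧
      (∀ w ∈ W, w - avg (Matrix.toLin' y) r w ∈ W ⊓ movSp y) := by
  have hTr : (Matrix.toLin' y) ^ r = 1 := toLin'_pow_rQ hS
  have hne := cast_r_ne_zero hS.prime hS.ndvd
  have hWT : ∀ w ∈ W, Matrix.toLin' y w ∈ W := fun w hw => hInv (Submodule.mem_map_of_mem hw)
  have hE1 : ∀ w ∈ W, avg (Matrix.toLin' y) r w ∈ W ⊓ fixSp y := fun w hw =>
    Submodule.mem_inf.mpr ⟨avg_mem _ r W hWT hw, mem_fixSp.mpr (T_avg _ r hTr w)⟩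
  have hE2 : ∀ w ∈ W, w - avg (Matrix.toLin' y) r w ∈ W ⊓ movSp y := fun w hw =>
    Submodule.mem_inf.mpr ⟨W.sub_mem hw (avg_mem _ r W hWT hw), sub_avg_mem _ r hne w⟩
  refine ⟨?_, ?_, hE1, hE2⟩
  · apply le_antisymm
    · exact sup_le inf_le_left inf_le_left
    · intro w hw
      rw [Submodule.mem_sup]
      exact ⟨_, hE1 w hw, _, hE2 w hw, by abel⟩
  · rintro _ ⟨w, hw, rfl⟩
    obtain ⟨hwW, hwN⟩ := Submodule.mem_inf.mp hw
    exact Submodule.mem_inf.mpr ⟨hWT w hwW, inv_movSp y (Submodule.mem_map_of_mem hwN)⟩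

theorem nd_fixQ (hS : StdQ Q r y) : Nd Q (fixSp y) := by
  have hB := hS.nondeg.polar_bilinear
  have hperp := perp_fix_movQ hS
  obtain ⟨-, -, hE1, hE2⟩ := split_WQ hS ⊤ (fun _ _ => Submodule.mem_top)
  intro w hwC hw0
  obtain ⟨⟨z, hz⟩, -⟩ := hS.nondeg.nondegenerate w hw0
  have key : QuadraticMap.polar Q (avg (Matrix.toLin' y) r z) w ≠ 0 := by
    have h1 : QuadraticMap.polar Q (z - avg (Matrix.toLin' y) r z) w = 0 := by
      rw [QuadraticMap.polar_comm]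
      exact hperp w hwC _ (Submodule.mem_inf.mp (hE2 z Submodule.mem_top)).2
    rw [polar_sub_left hB] at h1
    rw [← sub_eq_zero.mp h1]
    exact hz
  have hmem : avg (Matrix.toLin' y) r z ∈ fixSp y := (Submodule.mem_inf.mp (hE1 z Submodule.mem_top)).2
  exact ⟨⟨_, hmem, key⟩, ⟨_, hmem, by rw [QuadraticMap.polar_comm]; exact key⟩⟩

theorem nd_movQ (hS : StdQ Q r y) : Nd Q (movSp y) := by
  have hB := hS.nondeg.polar_bilinear
  have hperp := perp_fix_movQ hS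
  obtain ⟨-, -, hE1, hE2⟩ := split_WQ hS ⊤ (fun _ _ => Submodule.mem_top)
  intro w hwN hw0
  obtain ⟨⟨z, hz⟩, -⟩ := hS.nondeg.nondegenerate w hw0
  have key : QuadraticMap.polar Q (z - avg (Matrix.toLin' y) r z) w ≠ 0 := by
    have h1 : QuadraticMap.polar Q (avg (Matrix.toLin' y) r z) w = 0 :=
      hperp _ (Submodule.mem_inf.mp (hE1 z Submodule.mem_top)).2 w hwN
    rw [polar_sub_left hB, h1, sub_zero]
    exact hz
  have hmem : z - avg (Matrix.toLin' y) r z ∈ movSp y :=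
    (Submodule.mem_inf.mp (hE2 z Submodule.mem_top)).2
  exact ⟨⟨_, hmem, key⟩, ⟨_, hmem, by rw [QuadraticMap.polar_comm]; exact key⟩⟩

end

/-- **[SPLIT]** -/
theorem pkgSplit : Cfsg.Agent.Lib.Helper99.OTSP.PkgSplit.{u} := by
  intro F _ _ ι _ _ Q r y hS
  have hTop := split_WQ hS ⊤ (fun _ _ => Submodule.mem_top)
  simp only [top_inf_eq] at hTop
  refine ⟨perp_fix_movQ hS, IsCompl.of_eq (fix_inf_movQ hS) hTop.1, inv_movSp y, nd_fixQ hS,
    nd_movQ hS, fun W hInv => ?_⟩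
  have h := split_WQ hS W hInv
  exact ⟨h.1, h.2.1⟩

end Cfsg.Agent.Lib.Helper34.OTSP
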