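import Mathlib
import Cfsg.Agent.Lib.Helper40.OTSP.Defs

/-!
# OTSP (S5973), SPREAD cut, package [QS]: the characteristic-free symplectic transfer
`Qs v = ω(g v, v)`.
-/

set_option autoImplicit false

namespace Cfsg.Agent.Lib.Helper34.OTSP

open Cfsg.Agent.Lib.Helper40.OTSP Matrix

universe u

/-- **[QS]** -/
theorem pkgQS : PkgQS.{u} := by
  intro F _ n r g hg hr hpow hfpf
  classical
  have hgJ : g * Matrix.J (Fin n) F * gᵀ = Matrix.J (Fin n) F :=
    SymplecticGroup.mem_iff.mp hg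
  have hgJ' : gᵀ * Matrix.J (Fin n) F * g = Matrix.J (Fin n) F :=
    SymplecticGroup.mem_iff'.mp hg
  let B : LinearMap.BilinForm F (Fin n ⊕ Fin n → F) := Matrix.toBilin' (gᵀ * Matrix.J (Fin n) F)
  have hB : ∀ u v, B u v = u ⬝ᵥ (gᵀ * Matrix.J (Fin n) F) *ᵥ v := fun u v =>
    Matrix.toBilin'_apply' _ u v
  refine ⟨B.toQuadraticMap, ?_, ?_, hpow, hfpf⟩
  · apply LinearMap.BilinForm.Nondegenerate.ofSeparatingLeft
    intro u hu
    have h1 : ∀ v, u ⬝ᵥ (gᵀ * Matrix.J (Fin n) F) *ᵥ v + v ⬝ᵥ (gᵀ * Matrix.J (Fin n) F) *ᵥ u = 0 := by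
      intro v
      have h := hu v
      rw [QuadraticMap.polarBilin_apply_apply, LinearMap.BilinMap.polar_toQuadraticMap] at h
      rw [hB, hB] at h
      exact h
    have h2 : ((gᵀ * Matrix.J (Fin n) F)ᵀ + gᵀ * Matrix.J (Fin n) F) *ᵥ u = 0 := by
      apply dotProduct_eq_zero
      intro v
      have h := h1 v
      rw [Matrix.add_mulVec, add_dotProduct, Matrix.mulVec_transpose, ← Matrix.dotProduct_mulVec,
        dotProduct_comm ((gᵀ * Matrix.J (Fin n) F) *ᵥ u) v]
      exact h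
    have h3 : (g * Matrix.J (Fin n) F) * ((gᵀ * Matrix.J (Fin n) F)ᵀ + gᵀ * Matrix.J (Fin n) F)
        = g * g - 1 := by
      rw [Matrix.transpose_mul, Matrix.transpose_transpose, Matrix.J_transpose, Matrix.mul_add]
      have e1 : g * Matrix.J (Fin n) F * (-Matrix.J (Fin n) F * g) = g * g := by
        rw [Matrix.neg_mul, Matrix.mul_neg, Matrix.mul_assoc, ← Matrix.mul_assoc (Matrix.J (Fin n) F),
          Matrix.J_squared]
        simp
      have e2 : g * Matrix.J (Fin n) F * (gᵀ * Matrix.J (Fin n) F) = -1 := by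
        rw [← Matrix.mul_assoc, hgJ, Matrix.J_squared]
      rw [e1, e2]
      abel
    have h4 : (g * g) *ᵥ u = u := by
      have h := congrArg (fun M => M *ᵥ u) h3
      simp only [← Matrix.mulVec_mulVec, h2, Matrix.mulVec_zero, Matrix.sub_mulVec,
        Matrix.one_mulVec] at h
      rw [Matrix.mulVec_mulVec] at h
      exact (sub_eq_zero.mp h.symm)
    obtain ⟨k, rfl⟩ := hr
    have h5 : ∀ m : ℕ, ((g * g) ^ m) *ᵥ u = u := by
      intro m
      induction m with
      | zero => simp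
      | succ m ih => rw [pow_succ, ← Matrix.mulVec_mulVec, h4, ih]
    have h6 : (g * g) ^ (k + 1) = g := by
      rw [← pow_two, ← pow_mul]
      have e : 2 * (k + 1) = (2 * k + 1) + 1 := by ring
      rw [e, pow_succ, hpow, one_mul]
    apply hfpf
    have h7 := h5 (k + 1)
    rw [h6] at h7
    exact h7
  · intro v
    rw [LinearMap.BilinMap.toQuadraticMap_apply, LinearMap.BilinMap.toQuadraticMap_apply, hB, hB]
    rw [Matrix.mulVec_mulVec, hgJ']
    rw [← Matrix.mulVec_mulVec, Matrix.dotProduct_mulVec v gᵀ, Matrix.vecMul_transpose]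

end Cfsg.Agent.Lib.Helper34.OTSP
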