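import Mathlib
import Cfsg.Agent.Lib.Helper40.OTSP.Defs
import Cfsg.Agent.Lib.Helper14.Isom

/-!
# OTSP (S5973), SPREAD cut, package [TR]: transport of an isometry along an isometric linear
equivalence.
-/

set_option autoImplicit false

namespace Cfsg.Agent.Lib.Helper34.OTSP

open Cfsg.Agent.Lib.Helper23.OHyp Cfsg.Agent.Lib.Helper99.OTSP Cfsg.Agent.Lib.Helper40.OTSP Matrix

universe u

/-- **[TR]** -/
theorem pkgTr : PkgTr.{u} := by
  intro F _ r κ _ _ ι _ _ Q' Q₀ ψ φ hψ hφ hr hpow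
  classical
  let T : (κ → F) →ₗ[F] (κ → F) := Matrix.toLin' φ
  let S : (ι → F) →ₗ[F] (ι → F) := ψ.toLinearMap ∘ₗ T ∘ₗ ψ.symm.toLinearMap
  let Y : Matrix ι ι F := LinearMap.toMatrix' S
  have hYS : Matrix.toLin' Y = S := Matrix.toLin'_toMatrix' S
  have hSapp : ∀ v, S v = ψ (φ *ᵥ ψ.symm v) := fun v => by
    simp only [S, T, LinearMap.comp_apply, LinearEquiv.coe_coe, Matrix.toLin'_apply]
  have hYapp : ∀ v, Y *ᵥ v = ψ (φ *ᵥ ψ.symm v) := fun v => by
    rw [← Matrix.toLin'_apply, hYS, hSapp]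
  have hYpow : ∀ k : ℕ, ∀ v, (Y ^ k) *ᵥ v = ψ ((φ ^ k) *ᵥ ψ.symm v) := by
    intro k
    induction k with
    | zero => intro v; simp
    | succ k ih =>
      intro v
      rw [pow_succ, ← Matrix.mulVec_mulVec, hYapp, ih, pow_succ, ← Matrix.mulVec_mulVec,
        LinearEquiv.symm_apply_apply]
  have hYr : Y ^ r = 1 := by
    apply Matrix.toLin'.injective
    apply LinearMap.ext
    intro v
    rw [Matrix.toLin'_apply, hYpow, hpow, Matrix.one_mulVec, LinearEquiv.apply_symm_apply,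
      Matrix.toLin'_one]
    rfl
  have hr1 : r - 1 + 1 = r := Nat.sub_add_cancel hr
  let y : GL ι F := ⟨Y, Y ^ (r - 1), by rw [← pow_succ', hr1, hYr], by rw [← pow_succ, hr1, hYr]⟩
  have hyY : (y : Matrix ι ι F) = Y := rfl
  have hmov : movSp Y = (LinearMap.range (T - 1)).map ψ.toLinearMap := by
    unfold movSp
    rw [hYS]
    have hS1 : S - 1 = ψ.toLinearMap ∘ₗ (T - 1) ∘ₗ ψ.symm.toLinearMap := by
      apply LinearMap.ext
      intro v
      simp only [S, LinearMap.sub_apply, LinearMap.comp_apply, LinearEquiv.coe_coe,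
        Module.End.one_apply, map_sub, LinearEquiv.apply_symm_apply]
    rw [hS1, LinearMap.range_comp, LinearMap.range_comp, LinearEquiv.range, Submodule.map_top]
  refine ⟨y, ?_, ?_, ?_, ?_⟩
  · rw [Cfsg.Agent.Lib.Helper14.mem_isometryGroup_iff]
    intro x
    rw [hyY, hYapp, hψ, hφ, ← hψ, LinearEquiv.apply_symm_apply]
  · apply Units.ext
    rw [Units.val_pow_eq_pow_val, hyY, hYr]
    rfl
  · rw [hyY, hmov]
    exact LinearEquiv.finrank_map_eq ψ (LinearMap.range (T - 1))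
  · intro L hL hInv hTS
    rw [hyY] at hL hInv
    refine ⟨L.map ψ.symm.toLinearMap, ?_, ?_, ?_, LinearEquiv.finrank_map_eq ψ.symm L⟩
    · rintro _ ⟨l, hl, rfl⟩
      have h1 := hL hl
      rw [hmov] at h1
      obtain ⟨w, hw, rfl⟩ := h1
      have h2 : ψ.symm.toLinearMap (ψ.toLinearMap w) = w := by simp
      rw [h2]
      exact hw
    · rintro _ ⟨_, ⟨l, hl, rfl⟩, rfl⟩
      refine ⟨Y *ᵥ l, ?_, ?_⟩
      · have h1 := hInv (Submodule.mem_map_of_mem hl)
        rwa [Matrix.toLin'_apply] at h1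
      · rw [hYapp]
        simp
    · rintro _ ⟨l, hl, rfl⟩
      rw [← hψ]
      simp only [LinearEquiv.coe_coe, LinearEquiv.apply_symm_apply]
      exact hTS l hl

end Cfsg.Agent.Lib.Helper34.OTSP
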