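import Mathlib
import Cfsg.Agent.Lib.Helper40.OTSP.Defs

/-!
# OTSP (S5973), SPREAD cut, package [TYPE0]: an even number of blocks gives a totally singular
`n`-space (glue from OTSP [TYPEW]).
-/

set_option autoImplicit false

namespace Cfsg.Agent.Lib.Helper34.OTSP

open Cfsg.Agent.Lib.Helper23.OHyp Cfsg.Agent.Lib.Helper99.OTSP Cfsg.Agent.Lib.Helper40.OTSP Matrix

universe u

/-- A Mathlib quadratic form with nondegenerate polar form is a nondegenerate quadratic form in
the sense of the prelude. -/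
theorem isNondeg_of_quadraticForm {F : Type u} [Field F] {ι : Type} [Fintype ι] [DecidableEq ι]
    (Qs : QuadraticForm F (ι → F)) (h : (QuadraticMap.polarBilin Qs).Nondegenerate) :
    Cfsg.Geo.IsNondegenerateQuadraticForm (⇑Qs) where
  smul := fun c v => by rw [QuadraticMap.map_smul, smul_eq_mul, pow_two]
  polar_bilinear :=
    { add_left := fun x y v => QuadraticMap.polar_add_left Qs x y v
      smul_left := fun c x v => by rw [QuadraticMap.polar_smul_left, smul_eq_mul]
      add_right := fun v x y => QuadraticMap.polar_add_right Qs v x y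
      smul_right := fun c v x => by rw [QuadraticMap.polar_smul_right, smul_eq_mul] }
  nondegenerate := by
    intro v hv
    have h1 : ∃ x, QuadraticMap.polar Qs v x ≠ 0 := by
      by_contra hcon
      push Not at hcon
      exact hv (h.1 v hcon)
    obtain ⟨x, hx⟩ := h1
    exact ⟨⟨x, by rw [QuadraticMap.polar_comm]; exact hx⟩, ⟨x, hx⟩⟩

/-- The standing hypotheses `StdQ` from `NData`. -/
theorem stdQ_of_nData {F : Type u} [Field F] [Fintype F] {n r : ℕ}
    {Qs : QuadraticForm F (Fin n ⊕ Fin n → F)} {g : Matrix (Fin n ⊕ Fin n) (Fin n ⊕ Fin n) F}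
    (hN : NData n r Qs g) (hr : r.Prime) (hr2 : r ≠ 2) (hnd : ¬ r ∣ Fintype.card F) :
    StdQ (⇑Qs) r g where
  nondeg := isNondeg_of_quadraticForm Qs hN.nondeg
  prime := hr
  ne_two := hr2
  ndvd := hnd
  pow := hN.pow
  isom := hN.isom

/-- The moved space of a fixed-point-free matrix is everything. -/
theorem movSp_eq_top_of_fpf {F : Type u} [Field F] {ι : Type} [Fintype ι] [DecidableEq ι]
    (g : Matrix ι ι F) (hfpf : ∀ v, g *ᵥ v = v → v = 0) : movSp g = ⊤ := by
  unfold movSp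
  rw [LinearMap.range_eq_top]
  apply LinearMap.injective_iff_surjective.mp
  rw [← LinearMap.ker_eq_bot, Submodule.eq_bot_iff]
  intro v hv
  rw [LinearMap.mem_ker, LinearMap.sub_apply, Module.End.one_apply, sub_eq_zero,
    Matrix.toLin'_apply] at hv
  exact hfpf v hv

/-- **[TYPE0]** from OTSP [TYPEW]. -/
theorem pkgType0_of (hTW : Cfsg.Agent.Lib.Helper99.OTSP.PkgTypeW.{u}) : PkgType0.{u} := by
  intro F _ _ n r Qs g hN hr hr2 hnd hev hev2
  have hStd : StdQ (⇑Qs) r g := stdQ_of_nData hN hr hr2 hnd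
  have hmov : movSp g = ⊤ := movSp_eq_top_of_fpf g hN.fpf
  have hInv : Cfsg.Agent.Lib.Helper23.OHyp.Inv g ⊤ := fun _ _ => Submodule.mem_top
  have hNd : Nd (⇑Qs) ⊤ := by
    intro w _ hw0
    obtain ⟨⟨y, hy⟩, ⟨z, hz⟩⟩ := hStd.nondeg.nondegenerate w hw0
    exact ⟨⟨y, Submodule.mem_top, hy⟩, ⟨z, Submodule.mem_top, hz⟩⟩
  have key := hTW F (Fin n ⊕ Fin n) (⇑Qs) r g hStd hev ⊤ (by rw [hmov]) hInv hNd
  have hfr : Module.finrank F (⊤ : Submodule F (Fin n ⊕ Fin n → F)) = 2 * n := by
    rw [finrank_top, Module.finrank_fintype_fun_eq_card, Fintype.card_sum, Fintype.card_fin]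
    ring
  rw [hfr] at key
  obtain ⟨U, -, hU, hdim⟩ := key.mpr hev2
  rw [hfr] at hdim
  exact ⟨U, hU, by omega⟩

end Cfsg.Agent.Lib.Helper34.OTSP
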